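import Cfsg.Agent.B84.Loc
import Cfsg.Agent.GT.OddGL2

/-! # Subgroups of `GL₂(F)` containing the monomial group but no upper transvection -/

set_option autoImplicit false

namespace Cfsg.Agent.B84

open Cfsg.Agent.GT Cfsg.Agent.Cl Subgroup

variable {F : Type*} [Field F]

/-- contains the monomial group, but no upper transvection -/
structure Hm (K : Subgroup (GL (Fin 2) F)) : Prop where
  two : (2 : F) ≠ 0
  d : ∀ a b, dg a b ∈ K
  w : ww ∈ K
  x : ∀ c, xu c ∈ K → c = 0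

namespace Hm

variable {K : Subgroup (GL (Fin 2) F)} (h : Hm K) {A : GL (Fin 2) F} (m : A ∈ K)
include h m

theorem z10 (z : A.1 1 0 = 0) : A.1 0 1 = 0 := by
  obtain ⟨a, d⟩ := gl2B_ne_zero z
  have := mul_mem m (inv_mem (h.d (.mk0 _ a) (.mk0 _ d)))
  rw [show A * (dg (.mk0 _ a) (.mk0 _ d))⁻¹ = xu (A.1 0 1 / A.1 1 1) from mul_inv_eq_of_eq_mul (by
    simp [gl2_eq_iff, gl2_mul, dg, xu, z, d])] at this
  exact (div_eq_zero_iff.1 (h.x _ this)).resolve_right d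

theorem mono_or : (A.1 0 1 = 0 ∧ A.1 1 0 = 0) ∨ (A.1 0 0 = 0 ∧ A.1 1 1 = 0) ∨
    (A.1 0 0 ≠ 0 ∧ A.1 0 1 ≠ 0 ∧ A.1 1 0 ≠ 0 ∧ A.1 1 1 ≠ 0) := by
  have e1 := h.z10 m
  have e2 := h.z10 (mul_mem (mul_mem h.w m) h.w)
  have e3 := h.z10 (mul_mem h.w m)
  have e4 := h.z10 (mul_mem m h.w)
  simp [gl2_mul, ww] at e2 e3 e4
  tauto

theorem harm (a : A.1 0 0 ≠ 0) (b : A.1 0 1 ≠ 0) (c : A.1 1 0 ≠ 0) (d : A.1 1 1 ≠ 0) :
    A.1 0 1 * A.1 1 0 = -(A.1 0 0 * A.1 1 1) := by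
  have k := div_ne_zero (mul_ne_zero a d) (mul_ne_zero b c)
  have n := mul_mem (inv_mem (mul_mem (mul_mem (h.d (.mk0 _ k) 1) m) (inv_mem (h.d (.mk0 _ k) 1)))) m
  obtain ⟨e1, -, -, e4⟩ := inv_mul_ent A (dg (.mk0 _ k) 1 * A * (dg (.mk0 _ k) 1)⁻¹)
  have D := gl2_det (dg (.mk0 _ k) 1 * A * (dg (.mk0 _ k) 1)⁻¹)
  obtain ⟨r1, r2, r3, r4⟩ := dg_conj_ent (.mk0 _ k) A
  have z := (mul_eq_zero.1 (e1.trans (by rw [r2, r4, Units.val_mk0]; field_simp; ring))).resolve_left D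
  rcases h.mono_or n with o | o | o
  · exact absurd z (gl2B_ne_zero o.2).1
  · rw [o.2, mul_zero, r1, r3, Units.val_mk0] at e4
    field_simp at e4
    exact eq_neg_of_add_eq_zero_left ((mul_eq_zero.1 (show (A.1 0 0 * A.1 1 1 - A.1 0 1 * A.1 1 0) *
      (A.1 0 1 * A.1 1 0 + A.1 0 0 * A.1 1 1) = 0 by linear_combination -e4)).resolve_left (gl2_det A))
  · exact absurd z o.1

theorem pow4 (a : A.1 0 0 ≠ 0) (b : A.1 0 1 ≠ 0) (c : A.1 1 0 ≠ 0) (d : A.1 1 1 ≠ 0) {l : F} (k : l ≠ 0) :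
    l ^ 4 = 1 := by
  have H := h.harm m a b c d
  have n := mul_mem (inv_mem (mul_mem (mul_mem (h.d (.mk0 _ k) 1) m) (inv_mem (h.d (.mk0 _ k) 1)))) m
  obtain ⟨e1, e2, e3, e4⟩ := inv_mul_ent A (dg (.mk0 _ k) 1 * A * (dg (.mk0 _ k) 1)⁻¹)
  obtain ⟨r1, r2, r3, r4⟩ := dg_conj_ent (.mk0 _ k) A
  generalize (dg (.mk0 _ k) 1 * A * (dg (.mk0 _ k) 1)⁻¹)⁻¹ * A = B at *
  rw [r1, r2, r3, r4, Units.val_mk0] at e1 e2 e3 e4
  have ad := mul_ne_zero a d
  rcases h.mono_or n with o | o | o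
  · rw [o.1, mul_zero] at e2
    rw [show l = 1 from mul_left_cancel₀ (mul_ne_zero b d) (by linear_combination e2), one_pow]
  · rw [o.1, mul_zero] at e1
    rw [show l = -1 from mul_left_cancel₀ ad (by linear_combination -e1 + l * H)]; norm_num
  · have := congrArg (fun x => (A.1 0 0 * A.1 1 1 - l * A.1 0 1 * (A.1 1 0 / l)) ^ 2 * x)
      (h.harm n o.1 o.2.1 o.2.2.1 o.2.2.2)
    simp only [sq, mul_neg] at this
    rw [mul_mul_mul_comm, e2, e3, mul_mul_mul_comm _ _ (B.1 0 0), e1, e4] at this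
    field_simp at this
    have : l ^ 2 = -1 := mul_left_cancel₀ (mul_ne_zero (mul_ne_zero ad ad) h.two) (by
      linear_combination this + ((2 * l ^ 2 + 2 - l) * (A.1 0 0 * A.1 1 1) - l * (A.1 0 1 * A.1 1 0)) * H)
    rw [show l ^ 4 = (l ^ 2) ^ 2 by ring, this]; norm_num

theorem card [Fintype F] (o : Odd (Fintype.card F)) (a : A.1 0 0 ≠ 0) (b : A.1 0 1 ≠ 0) (c : A.1 1 0 ≠ 0)
    (d : A.1 1 1 ≠ 0) : Fintype.card F = 3 ∨ Fintype.card F = 5 := by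
  have : Monoid.exponent Fˣ ∣ 4 := Monoid.exponent_dvd_of_forall_pow_eq_one fun l =>
    Units.ext (by simpa using h.pow4 m a b c d l.ne_zero)
  rw [IsCyclic.exponent_eq_card, Nat.card_units, Nat.card_eq_fintype_card] at this
  have := Nat.le_of_dvd (by norm_num) this
  have := Fintype.one_lt_card (α := F)
  have := Nat.odd_iff.1 o
  omega

theorem eq_one {p : ℕ} [Fact p.Prime] [CharP F p] (e : A ^ p = 1) : A = 1 := by
  have u := mat2_unipotent (p := p) (x := A.1) (k := 1) (by rw [pow_one, ← Units.val_pow_eq_pow_val, e]; rfl)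
  have u1 := congrFun (congrFun u 0) 0
  have u2 := congrFun (congrFun u 0) 1
  have u4 := congrFun (congrFun u 1) 1
  simp [Matrix.mul_apply, Fin.sum_univ_two] at u1 u2 u4
  rcases h.mono_or m with o | o | ⟨a, b, c, d⟩
  · rw [o.1] at u1 u4
    simp [sub_eq_zero] at u1 u4
    simp [gl2_eq_iff, o.1, o.2, u1, u4]
  · have D := gl2_det A
    rw [o.1, o.2] at u2
    rw [o.1, show A.1 0 1 = 0 from (mul_eq_zero.1 (show 2 * A.1 0 1 = 0 by linear_combination -u2)).resolve_left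
      h.two] at D
    simp at D
  have H := h.harm m a b c d
  have P := fun l => h.pow4 m a b c d (l := l)
  have t : A.1 1 1 = 2 - A.1 0 0 := mul_left_cancel₀ b (by linear_combination u2)
  rw [t] at H
  obtain ⟨x, hx⟩ : ∃ x, A.1 0 0 = x + 1 := ⟨A.1 0 0 - 1, by ring⟩
  rw [hx] at H u1 a
  have x2 : 2 * x ^ 2 = 1 := by linear_combination u1 - H
  have x4 := P x (by rintro rfl; simp at x2)
  have t3 : (3 : F) = 0 := by linear_combination (2 * x ^ 2 + 1) * x2 - 4 * x4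
  have xx : x ^ 2 = -1 := by linear_combination x ^ 2 * t3 - x2
  exact (h.two (by linear_combination -(P _ a) + (x ^ 2 + 4 * x + 5) * xx - t3)).elim

end Hm

end Cfsg.Agent.B84
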