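import Cfsg.Agent.B84.LocC
import Cfsg.Agent.B84.Harm

/-! # The case where a root group commutes with exactly one other root group -/

set_option autoImplicit false

namespace Cfsg.Agent.B84

open Cfsg.Agent.GT Cfsg.Agent.Cl Cfsg.Agent.TT Subgroup

variable {F G : Type*} [Field F] [Group G] {φ : GL (Fin 2) F →* G} {g x s : G} {W P M : Subgroup G}

theorem norm_eq_cent_mul (o : Odd (Nat.card C[P])) (ss : s * s = 1) (i : ∀ x ∈ P, s * x * s⁻¹ = x⁻¹)
    (n : x ∈ N[P]) : ∃ c ∈ C[P], Commute (c⁻¹ * x) s := by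
  have m : x * s * x⁻¹ * s ∈ C[P] := fun y hy => by
    have := inv_cj x i y⁻¹ (by rw [conj_eq_self n]; exact inv_mem hy)
    calc y * (x * s * x⁻¹ * s) = x * s * x⁻¹ * y⁻¹ * (x * s * x⁻¹)⁻¹ * (x * s * x⁻¹ * s) := by rw [this, inv_inv]
      _ = _ := by rw [← i y hy]; group
  obtain ⟨k, e, -⟩ := conj_of_inv (odd_of_mem o m) ss (by
    rw [mul_assoc _ s s, ss, mul_one]; exact conj_mul_self x ss)
  rw [mul_assoc _ s s, ss, mul_one] at e
  refine ⟨_, pow_mem m k, commute_iff_conj.2 ?_⟩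
  generalize (x * s * x⁻¹ * s) ^ k = c at e
  calc c⁻¹ * x * s * (c⁻¹ * x)⁻¹ = c⁻¹ * (x * s * x⁻¹) * c := by group
    _ = s := by rw [← e]; group

variable [Fintype F] [Finite G]

namespace Hy

variable (h : Hy φ g)
include h

theorem odd_of (hT : Tor φ ≤ N[M]) (e : ∀ z ∈ M, z ∈ Tor φ → z * z = 1 → z = 1) : Odd (Nat.card M) := by
  by_contra o
  have pU : IsPGroup 2 ((powMonoidHom 2 : Fˣ × Fˣ →* _).ker.map (φ.comp dgH)) := isPGroup_of_forall (by
    rintro _ ⟨a, m, rfl⟩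
    exact ⟨1, by rw [← map_pow, show a ^ 2 ^ 1 = 1 from m, map_one]⟩)
  obtain ⟨Q, hQ, le⟩ := exists_syl_ge Nat.prime_two pU ((map_le_range _ _).trans hT)
  have s := syl_inf_normal Nat.prime_two hQ le_normalizer le_rfl
  have p := syl_isPGroup Nat.prime_two s
  have := inf_cent_ne_bot_of_isPGroup Nat.prime_two p pU (le_norm_inf (le_norm_self le)
    ((map_le_range _ _).trans hT)) ((syl_ne_bot_iff Nat.prime_two s).2
      (even_iff_two_dvd.1 (Nat.not_odd_iff_even.1 o)))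
  obtain ⟨z, hz, o⟩ := exists_mem_orderOf_eq Nat.prime_two
    (prime_dvd_card_of_isPGroup Nat.prime_two (p.to_le inf_le_left) this)
  exact ne_one_of_orderOf o (e z hz.1.2 (mem_Tor.2 (h.cent_U.1 ⟨(hz.2 _ ⟨(-1, -1), by simp, rfl⟩).symm,
    (hz.2 _ ⟨(1, -1), by simp, rfl⟩).symm⟩)) (mul_self_of_orderOf o))

theorem case_a (ca : cj[g⁻¹] (RL φ) ≤ C[RU φ]) (nb : ¬ cj[g] (RL φ) ≤ C[RU φ]) (nc : ¬ cj[g] (RU φ) ≤ C[RU φ]) :
    (Fintype.card F = 3 ∨ Fintype.card F = 5) ∧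
      ¬ Fintype.card F * Fintype.card F ∣ (C1[φ (dg (-1) (-1))]).index := by
  haveI := Fact.mk (prime_p (F := F))
  have nc' : ¬ cj[g⁻¹] (RU φ) ≤ C[RU φ] := fun e => nc (by
    have := conj_mono g (le_cent_symm e)
    rwa [conj_centralizer, conj_inv_conj] at this)
  have ib := h.inf_bot h.t1_13
  have cP : Nat.card ↥(RU φ ⊔ cj[g⁻¹] (RL φ)) = Fintype.card F ^ 2 := by
    rw [card_sup_of_inf_eq_bot (Or.inr (ca.trans (cent_le_norm _))) ib, card_conj, RL, h.refl.card_RU, h.card_RU, sq]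
  have PC : RU φ ⊔ cj[g⁻¹] (RL φ) ≤ C[RU φ ⊔ cj[g⁻¹] (RL φ)] := by
    rw [cent_sup]
    exact le_inf (sup_le RU_comm ca) (sup_le (le_cent_symm ca) (conj_centralizer g⁻¹ _ ▸ conj_mono _ RU_comm))
  have TP := le_norm_sup Tor_RU (h.T_cj' Tor_RL)
  have iP := inv_sup (fun _ => t2_RU) ((show g⁻¹ * φ (dg (-1) 1) * g⁻¹⁻¹ = φ (dg 1 (-1)) by
    rw [← h.g2]; group) ▸ inv_cj g⁻¹ fun _ => t3_RL) (le_cent_symm ca)
  have ss : rt g φ ww * rt g φ ww = 1 := by rw [← map_mul, ww_mul, map_one]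
  have sU : cj[rt g φ ww] (RU φ) = cj[g⁻¹] (RL φ) := by
    change cj[g * φ ww * g⁻¹] _ = _
    rw [mul_conj, mul_conj, h.wg' Tor_RU, w_RU, h.gg Tor_RL]
  have sP : rt g φ ww ∈ N[RU φ ⊔ cj[g⁻¹] (RL φ)] := conj_eq_self_iff.1 (by
    rw [conj_sup, ← sU, ← mul_conj, ss, one_conj, sup_comm])
  have l1 : RU φ ≤ RU φ ⊔ cj[g⁻¹] (RL φ) := le_sup_left
  have l2 : cj[g⁻¹] (RL φ) ≤ RU φ ⊔ cj[g⁻¹] (RL φ) := le_sup_right
  generalize RU φ ⊔ cj[g⁻¹] (RL φ) = P at *
  have oP : Odd (Nat.card P) := cP ▸ h.odd.pow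
  obtain ⟨n, -, qn⟩ := exists_card_eq_char_pow (F := F) (ringChar F)
  have pP : IsPGroup (ringChar F) P := IsPGroup.of_card (by rw [cP, qn, ← pow_mul])
  have TC := le_norm_cent TP
  have CU := cent_anti l1
  have oC : Odd (Nat.card C[P]) := h.odd_of TC fun z m t zz => by
    by_contra z1
    obtain ⟨a, b, rfl⟩ := mem_Tor.1 t
    rw [h.invol_cent (CU m) T_comm zz z1] at m
    exact h.not_le_L' fun y hy => h.cent.1 (m y (l2 hy))
  have hm : Hm (N[P].comap (rt g φ)) := ⟨h.two, fun a b => TP (h.Tor_rt.le (dg_mem a b)), sP, fun c e => by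
    by_contra c0
    have x := full (h.Tor_rt.le.trans (le_norm_norm TP)) c0 e
    rw [RU_rt] at x
    refine inf_cent_ne_bot_of_isPGroup prime_p pP (h.isP_RU.map _) x (fun e => h.not_le_L'
      (l2.trans (e.le.trans bot_le))) (eq_bot_iff.2 ((le_inf inf_le_left (h.le_T
        (oP.of_dvd_nat (card_dvd_of_le inf_le_left)) (le_norm_inf TP (le_norm_cent (h.T_cj Tor_RU)))
      (fun e => nc (e.trans (inf_le_left.trans (PC.trans CU))))
      (fun e => nb (e.trans (inf_le_left.trans (PC.trans CU))))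
      (fun e => nc' (e.trans (inf_le_left.trans (PC.trans CU)))) (fun e => nb ?_)
      (fun e => nc (le_cent_symm (e.trans inf_le_right)))
      fun e => h.not_both oP TP l1 (e.trans inf_le_left))).trans (T_inf pP).le))
    have := e.trans inf_le_right
    rwa [← h.gg Tor_RL, ← conj_centralizer, conj_le_conj_iff] at this⟩
  have dN : ∀ n ∈ N[P], ∃ c ∈ C[P], ∃ A ∈ N[P].comap (rt g φ), n = c * rt g φ A := fun n e => by
    obtain ⟨c, m, k⟩ := norm_eq_cent_mul oC (t_sq (by simp) (by simp)) iP e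
    obtain ⟨A, r⟩ := h.rot.cent.1 (h.g1 ▸ k :)
    exact ⟨c, m, A, mem_comap.2 (r ▸ mul_mem (inv_mem (cent_le_norm _ m)) e), by rw [r, mul_inv_cancel_left]⟩
  have CK : C[P] ≤ (N[P].comap (rt g φ)).map (rt g φ) ⊔ P := fun y hy => by
    obtain ⟨A, a, i, m, ha, hi, rfl⟩ := h.rot.dec oC (h.Tor_rt.le.trans TC) hy
    rw [RU_rt, RL_rt, h.gg Tor_RU, h.gg Tor_RL] at ha
    rw [RU_rt, RL_rt, inv_conj_conj, inv_conj_conj] at hi
    refine mul_mem (mul_mem (mem_sup_left (mem_map_of_mem _ (cent_le_norm _ m))) (mem_sup_right ?_))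
      (mem_sup_right ?_)
    · rcases ha with rfl | e | e
      exacts [one_mem _, (nc' (e.2.trans CU)).elim, l2 e.1]
    · rcases hi with rfl | e | e
      exacts [one_mem _, l1 e.1, (h.not_both oC TC (l1.trans PC) e.2).elim]
  have sy : IsPiHallOf {ringChar F} P ⊤ := syl_top_of_norm_le prime_p (syl_mk prime_p le_normalizer pP fun d => by
    rw [show N[P] = (N[P].comap (rt g φ)).map (rt g φ) ⊔ P from le_antisymm (fun n e => by
      obtain ⟨c, m, A, r, rfl⟩ := dN n e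
      exact mul_mem (CK m) (mem_sup_left (mem_map_of_mem _ r))) (sup_le (map_comap_le _ _) le_normalizer),
      relIndex_sup_of_le_norm (map_comap_le _ _)] at d
    obtain ⟨A, m, o⟩ := exists_mem_orderOf_eq prime_p ((d.trans (relIndex_dvd_card' _ _)).trans (card_map_dvd _ _))
    rw [hm.eq_one m (p := ringChar F) (o ▸ pow_orderOf_eq_one A), orderOf_one] at o
    exact prime_p.one_lt.ne o) le_rfl
  refine ⟨?_, fun d => syl_not_dvd prime_p sy ((char_dvd_card (F := F) _).trans (Nat.dvd_of_mul_dvd_mul_left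
    (show 0 < Fintype.card F ^ 2 from pow_pos Fintype.card_pos 2) ?_))⟩
  swap
  · rw [← cP, relIndex_top_right, card_mul_index, ← φ.range.card_mul_index, h.range, cP, pow_two, mul_comm]
    exact mul_dvd_mul (h.card_RU ▸ card_dvd_of_le (RU_le.trans h.range.le)) d
  have y1 : φ (xu 1) ≠ 1 := fun e => one_ne_zero (h.xu_inj e)
  have yU := xu_mem (φ := φ) 1
  generalize φ (xu 1) = y at y1 yU
  have y2 : rt g φ ww * y * (rt g φ ww)⁻¹ ∈ cj[g⁻¹] (RL φ) := sU ▸ conj_mem_conj.2 yU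
  have xP := mul_mem (l1 yU) (l2 y2)
  have sx : rt g φ ww * (y * (rt g φ ww * y * (rt g φ ww)⁻¹)) * (rt g φ ww)⁻¹ =
      y * (rt g φ ww * y * (rt g φ ww)⁻¹) := by
    rw [← conj_mul, ca y2 y yU, inv_of_sq ss]
    simp only [mul_assoc, sq_cancel ss, ss, mul_one]
  have nx : ∀ τ ∈ Tor φ, τ * (y * (rt g φ ww * y * (rt g φ ww)⁻¹)) * τ⁻¹ ∉ RU φ := fun τ t e =>
    y1 (conj_eq_one_iff.1 (ib.le (mem_inf.2 ⟨(mul_mem_cancel_left yU).1
      ((mem_normalizer_iff.1 (Tor_RU t) _).2 e), y2⟩)))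
  generalize y * (rt g φ ww * y * (rt g φ ww)⁻¹) = x at xP sx nx
  obtain ⟨k, e⟩ := isConj_iff.1 (h.conj_t ss fun e => by
    obtain ⟨c, -, r⟩ := h.rot.ker _ e
    simpa [ww, dg] using (gl2_eq_iff.1 r).2.1)
  obtain ⟨m, -, r⟩ := syl_exists_conj_le prime_p h.syl_RU (Q := cj[k⁻¹] (zpowers x))
    ((pP.to_le (zpowers_le.2 xP)).map _) (by
      rw [conj_zpowers, zpowers_le]
      refine h.cent.1 ((commute_conj_iff k).1 ?_)
      rw [e]
      simpa [mul_assoc] using (commute_iff_conj.2 sx).symm)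
  rw [← mul_conj, conj_zpowers, zpowers_le] at r
  obtain ⟨n, hn, c, hc, j⟩ := syl_fusion_cent prime_p sy (g := m * k⁻¹) trivial (Y := {x})
    (fun _ e => e ▸ PC xP) fun _ e => e ▸ PC (l1 r)
  obtain ⟨c', m', A, hA, rfl⟩ := dN n hn.2
  have : rt g φ A * x * (rt g φ A)⁻¹ ∈ RU φ := by
    rw [j] at r
    have e1 := commute_iff_conj.1 (show Commute c' _ from (m' _ (conj_mem_of_mem_norm hA xP)).symm)
    rw [← e1, ← commute_iff_conj.1 (show Commute c x from mem_cent1.1 hc.2)]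
    simpa only [mul_assoc, mul_inv_rev] using r
  rcases hm.mono_or hA with o | o | ⟨a, b, c, d⟩
  · obtain ⟨a, b, rfl⟩ := eq_dg o.1 o.2
    exact (nx _ (h.Tor_rt.le (dg_mem a b)) this).elim
  · obtain ⟨a, b, r⟩ := eq_dg (A := A * ww) (by simp [gl2_mul, ww, o.1]) (by simp [gl2_mul, ww, o.2])
    refine (nx _ (h.Tor_rt.le (dg_mem a b)) ?_).elim
    rw [← r, map_mul, mul_inv_rev, mul_assoc _ _ x, mul_assoc, ← mul_assoc (_ * x), sx, ← mul_assoc]
    exact this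
  · exact hm.card hA h.odd a b c d

/-- the local analysis -/
theorem loc (d : ringChar F ∣ (C1[φ (dg (-1) (-1))]).index) (lt : (C1[φ (dg (-1) (-1))]).index <
    3 * Fintype.card F ^ 2 * (Fintype.card F ^ 2 - Fintype.card F + 1)) :
    (cj[g⁻¹] (RL φ) ≤ C[RU φ] ∧ cj[g] (RL φ) ≤ C[RU φ]) ∨ ((Fintype.card F = 3 ∨ Fintype.card F = 5) ∧
      ¬ Fintype.card F * Fintype.card F ∣ (C1[φ (dg (-1) (-1))]).index) := by
  have nc : ¬ cj[g] (RU φ) ≤ C[RU φ] := fun e => (h.case_c e).not_gt lt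
  by_cases a : cj[g⁻¹] (RL φ) ≤ C[RU φ] <;> by_cases b : cj[g] (RL φ) ≤ C[RU φ]
  · exact Or.inl ⟨a, b⟩
  · exact Or.inr (h.case_a a b nc)
  · have := h.dual.case_a (by rwa [RU_du, RL_du, inv_inv]) (by rwa [RU_du, RL_du]) fun e => nc (by
      have := conj_mono g (le_cent_symm e)
      rwa [conj_centralizer, conj_inv_conj, RU_du] at this)
    exact Or.inr (by simpa [duH_dg] using this)
  · exact absurd (h.comm_of_dvd d) (by tauto)

end Hy

end Cfsg.Agent.B84
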