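import Cfsg.Agent.B84.LocC
import Cfsg.Agent.Cl.SLSimple

/-! # A presentation of `SL₃(F)` through a maximal parabolic subgroup -/

set_option autoImplicit false

namespace Cfsg.Agent.B84

open Cfsg.Agent.GT Cfsg.Agent.Cl Cfsg.Agent.TT Subgroup Matrix

variable {F G : Type*} [Field F] [Group G]

/-- the Weyl element of `SL₂` -/
noncomputable def nn : GL (Fin 2) F := gl2mk 0 1 (-1) 0 (by simp)

theorem det_nn : GeneralLinearGroup.det (nn : GL (Fin 2) F) = 1 := Units.ext (by simp [nn, det_fin_two])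
theorem nn_sq : (nn : GL (Fin 2) F) * nn = dg (-1) (-1) := by simp [gl2_eq_iff, gl2_mul, nn, dg]

theorem bruhat (A : GL (Fin 2) F) : (∃ a b c, A = dg a b * xu c) ∨ ∃ d a b c, A = xu d * nn * (dg a b * xu c) := by
  have k : ∀ A : GL (Fin 2) F, A.1 1 0 = 0 → ∃ a b c, A = dg a b * xu c := fun A z =>
    ⟨.mk0 _ (gl2B_ne_zero z).1, .mk0 _ (gl2B_ne_zero z).2, A.1 0 1 / A.1 0 0, by
      simp [gl2_eq_iff, gl2_mul, dg, xu, z, mul_div_cancel₀, (gl2B_ne_zero z).1]⟩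
  by_cases z : A.1 1 0 = 0
  · exact Or.inl (k A z)
  obtain ⟨a, b, c, e⟩ := k ((xu (A.1 0 0 / A.1 1 0) * nn)⁻¹ * A) ((mul_eq_zero.1 ((inv_mul_ent _ _).2.2.1.trans
    (by simp [gl2_mul, xu, nn, z]))).resolve_left (gl2_det _))
  exact Or.inr ⟨_, a, b, c, inv_mul_eq_iff_eq_mul.1 e⟩

/-- relations of `SL₃(F)`: `Φ` is the Levi factor, `Z`, `V` the root groups of the unipotent radical -/
structure Rel (Φ : GL (Fin 2) F →* G) (Z V : F → G) (S : G) : Prop where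
  sz : ∀ a, S * Z a = Φ (xu a) * S
  vadd : ∀ a b, V a * V b = V (a + b)
  zv : ∀ a b, Z a * V b = V b * Z a
  uz : ∀ a b, Φ (xu a) * Z b = Z b * Φ (xu a)
  uv : ∀ a b, Φ (xu a) * V b = V b * Z (a * b) * Φ (xu a)
  mv : ∀ b, Φ nn * V b = Z b * Φ nn
  dv : ∀ (a b : Fˣ) c, Φ (dg a b) * V c = V (a * b ^ 2 * c) * Φ (dg a b)
  sd : ∀ a b : Fˣ, S * Φ (dg a b) = Φ (dg a (a * b)⁻¹) * S
  ss : S * S = Φ (dg 1 (-1))
  sv : S * V 1 = V (-1) * S * V (-1) * S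
  br : S * Φ nn * S = Φ nn * S * Φ nn

namespace Rel

variable {Φ : GL (Fin 2) F →* G} {Z V : F → G} {S : G} (R : Rel Φ Z V S)
include R

theorem z_eq (a : F) : Z a = S⁻¹ * Φ (xu a) * S := by rw [mul_assoc, ← R.sz, inv_mul_cancel_left]
theorem zadd (a b : F) : Z a * Z b = Z (a + b) := by simp only [R.z_eq, ← xu_add, map_mul]; group
theorem v0 : V 0 = 1 := by simpa using R.vadd 0 0
theorem z0 : Z 0 = 1 := by simpa using R.zadd 0 0
theorem mz (b : F) : Φ nn * Z b = V (-b) * Φ nn := by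
  have := R.dv (-1) (-1) b
  rw [← nn_sq, map_mul, mul_assoc, R.mv, ← mul_assoc, ← mul_assoc, mul_left_inj] at this
  simpa using this
theorem dz (a b : Fˣ) (c : F) : Φ (dg a b) * Z c = Z (a * c * (a * b)) * Φ (dg a b) := by
  refine mul_left_cancel (a := S) ?_
  rw [← mul_assoc, R.sd, mul_assoc, R.sz, ← mul_assoc S, R.sz, mul_assoc, R.sd, ← mul_assoc, ← mul_assoc,
    ← map_mul, ← map_mul, mul_inv_eq_iff_eq_mul.1 (dg_xu _ _ _)]
  simp [div_eq_mul_inv]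

/-- the unipotent radical -/
def E : Subgroup G where
  carrier := {x | ∃ a b, x = Z a * V b}
  mul_mem' := by
    rintro _ _ ⟨a, b, rfl⟩ ⟨c, d, rfl⟩
    exact ⟨a + c, b + d, by rw [mul_assoc, ← mul_assoc (V b), ← R.zv, ← R.zadd, ← R.vadd]; group⟩
  one_mem' := ⟨0, 0, by rw [R.z0, R.v0, one_mul]⟩
  inv_mem' := by
    rintro _ ⟨a, b, rfl⟩
    exact ⟨-a, -b, inv_eq_of_mul_eq_one_right (by
      rw [R.zv (-a), mul_assoc, ← mul_assoc (V b), R.vadd, add_neg_cancel, R.v0, one_mul, R.zadd, add_neg_cancel, R.z0])⟩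

theorem z_mem (a : F) : Z a ∈ R.E := ⟨a, 0, by rw [R.v0, mul_one]⟩
theorem v_mem (a : F) : V a ∈ R.E := ⟨0, a, by rw [R.z0, one_mul]⟩

theorem norm_E : Φ.range ≤ N[R.E] := by
  have k : ∀ A, (∀ a, Φ A * Z a * (Φ A)⁻¹ ∈ R.E) → (∀ a, Φ A * V a * (Φ A)⁻¹ ∈ R.E) →
      ∀ x ∈ R.E, Φ A * x * (Φ A)⁻¹ ∈ R.E := by
    rintro A e1 e2 _ ⟨a, b, rfl⟩
    rw [← conj_mul]; exact mul_mem (e1 a) (e2 b)
  have k1 := fun c => k (xu c) (fun a => by rw [R.uz, mul_inv_cancel_right]; exact R.z_mem _)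
    fun a => by rw [R.uv, mul_inv_cancel_right]; exact mul_mem (R.v_mem _) (R.z_mem _)
  have k2 := fun a b => k (dg a b) (fun a => by rw [R.dz, mul_inv_cancel_right]; exact R.z_mem _)
    fun a => by rw [R.dv, mul_inv_cancel_right]; exact R.v_mem _
  have k3 := k nn (fun a => by rw [R.mz, mul_inv_cancel_right]; exact R.v_mem _)
    fun a => by rw [R.mv, mul_inv_cancel_right]; exact R.z_mem _
  refine le_norm_iff.2 ?_
  rintro _ ⟨A, rfl⟩ x e
  rcases bruhat A with ⟨a, b, c, rfl⟩ | ⟨d, a, b, c, rfl⟩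
  · simpa only [map_mul, _root_.mul_inv_rev, mul_assoc] using k2 a b _ (k1 c x e)
  · simpa only [map_mul, _root_.mul_inv_rev, mul_assoc] using k1 d _ (k3 _ (k2 a b _ (k1 c x e)))

theorem mem_P {x : G} : x ∈ R.E ⊔ Φ.range ↔ ∃ a b A, x = Z a * V b * Φ A := by
  rw [mem_sup_of_le_norm' R.norm_E]
  exact ⟨by rintro ⟨_, ⟨a, b, rfl⟩, _, ⟨A, rfl⟩, rfl⟩; exact ⟨a, b, A, rfl⟩,
    fun ⟨a, b, A, e⟩ => ⟨_, ⟨a, b, rfl⟩, _, ⟨A, rfl⟩, e⟩⟩

theorem key {p : G} (e : p ∈ R.E ⊔ Φ.range) : S * p * S⁻¹ ∈ R.E ⊔ Φ.range ∨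
    ∃ x ∈ R.E ⊔ Φ.range, ∃ y ∈ R.E ⊔ Φ.range, S * p * S⁻¹ = x * S * y := by
  obtain ⟨a, b, A, rfl⟩ := R.mem_P.1 e
  have f := fun A => (le_sup_right : Φ.range ≤ R.E ⊔ Φ.range) ⟨A, rfl⟩
  have z := fun a => (le_sup_left : R.E ≤ R.E ⊔ Φ.range) (R.z_mem a)
  have v := fun a => (le_sup_left : R.E ≤ R.E ⊔ Φ.range) (R.v_mem a)
  generalize R.E ⊔ Φ.range = P at *
  have qz : ∀ a, S * Z a * S⁻¹ ∈ P := fun a => by rw [R.sz, mul_inv_cancel_right]; exact f _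
  have qd : ∀ a b, S * Φ (dg a b) * S⁻¹ ∈ P := fun a b => by rw [R.sd, mul_inv_cancel_right]; exact f _
  have qu : ∀ a, S * Φ (xu a) * S⁻¹ ∈ P := fun a => by
    rw [show S * Φ (xu a) * S⁻¹ = S * S * Z a * (S * S)⁻¹ by rw [R.z_eq]; group, R.ss, R.dz, mul_inv_cancel_right]
    exact z _
  have qb : ∀ a b c, S * Φ (dg a b * xu c) * S⁻¹ ∈ P := fun a b c => by
    rw [map_mul, ← conj_mul]; exact mul_mem (qd a b) (qu c)
  have g : ∀ x r y, S * x * S⁻¹ ∈ P → S * y * S⁻¹ ∈ P → (∃ x ∈ P, ∃ y ∈ P, S * r * S⁻¹ = x * S * y) →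
      ∃ x' ∈ P, ∃ y' ∈ P, S * (x * r * y) * S⁻¹ = x' * S * y' := fun x r y hx hy ⟨x', hx', y', hy', e⟩ =>
    ⟨_, mul_mem hx hx', _, mul_mem hy' hy, by rw [← conj_mul, ← conj_mul, e]; group⟩
  rcases bruhat A with ⟨c, d, k, rfl⟩ | ⟨l, c, d, k, rfl⟩
  · by_cases b0 : b = 0
    · left; rw [b0, R.v0, mul_one, ← conj_mul]; exact mul_mem (qz a) (qb c d k)
    · right
      have := g (Z a * Φ (dg (.mk0 b b0) 1)) (V 1) ((Φ (dg (.mk0 b b0) 1))⁻¹ * Φ (dg c d * xu k))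
        (by rw [← conj_mul]; exact mul_mem (qz _) (qd _ _))
        (by rw [← conj_mul, ← conj_inv]; exact mul_mem (inv_mem (qd _ _)) (qb _ _ _))
        ⟨_, v (-1), _, v (-1), by rw [R.sv, mul_inv_cancel_right]⟩
      rw [mul_assoc (Z a), R.dv] at this
      simpa [mul_assoc] using this
  · right
    have := g (Z a * Φ (xu l) * Z (-l * b)) (Φ nn) (Z (-b) * Φ (dg c d * xu k))
      (by rw [← conj_mul, ← conj_mul]; exact mul_mem (mul_mem (qz _) (qu _)) (qz _))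
      (by rw [← conj_mul]; exact mul_mem (qz _) (qb _ _ _))
      ⟨_, f nn, _, mul_mem (f nn) (inv_mem (f (dg 1 (-1)))), by
        rw [← R.ss, ← mul_assoc, ← R.br]; group⟩
    rwa [show Z a * Φ (xu l) * Z (-l * b) * Φ nn * (Z (-b) * Φ (dg c d * xu k)) =
      Z a * V b * Φ (xu l * nn * (dg c d * xu k)) by
        rw [mul_assoc _ (Φ nn), ← mul_assoc (Φ nn), R.mz, neg_neg, mul_assoc (Z a), R.uz, map_mul, map_mul]
        simp only [mul_assoc]
        rw [← mul_assoc (Φ (xu l)), R.uv, ← R.zv, mul_assoc, mul_assoc, ← mul_assoc (Z (-l * b)), R.zadd]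
        simp [R.z0, mul_assoc]] at this

/-- the union of the two double cosets -/
def K : Subgroup G where
  carrier := {k | k ∈ R.E ⊔ Φ.range ∨ ∃ x ∈ R.E ⊔ Φ.range, ∃ y ∈ R.E ⊔ Φ.range, k = x * S * y}
  one_mem' := Or.inl (one_mem _)
  mul_mem' := by
    have s : S * S ∈ R.E ⊔ Φ.range := mem_sup_right ⟨_, R.ss.symm⟩
    rintro k l (e | ⟨x, hx, y, hy, rfl⟩) (e' | ⟨x', hx', y', hy', rfl⟩)
    · exact Or.inl (mul_mem e e')
    · exact Or.inr ⟨_, mul_mem e hx', _, hy', by group⟩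
    · exact Or.inr ⟨_, hx, _, mul_mem hy e', by group⟩
    · rw [show x * S * y * (x' * S * y') = x * (S * (y * x') * S⁻¹) * (S * S * y') by group]
      rcases R.key (mul_mem hy hx') with e | ⟨a, ha, b, hb, e⟩
      · exact Or.inl (mul_mem (mul_mem hx e) (mul_mem s hy'))
      · exact Or.inr ⟨_, mul_mem hx ha, _, mul_mem hb (mul_mem s hy'), by rw [e]; group⟩
  inv_mem' := by
    rintro k (e | ⟨x, hx, y, hy, rfl⟩)
    · exact Or.inl (inv_mem e)
    · exact Or.inr ⟨_, inv_mem hy, _, inv_mem (mul_mem hx (mem_sup_right ⟨_, R.ss.symm⟩)), by group⟩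

end Rel

/-- constructor -/
def s3 (M : Matrix (Fin 3) (Fin 3) F) (h : M.det = 1) : SpecialLinearGroup (Fin 3) F := ⟨M, h⟩
theorem s3_val (M : Matrix (Fin 3) (Fin 3) F) (h : M.det = 1) : (s3 M h).1 = M := rfl
theorem s3_mul (A B : SpecialLinearGroup (Fin 3) F) : (A * B).1 = A.1 * B.1 := rfl

/-- the Levi factor -/
noncomputable def iot : GL (Fin 2) F →* SpecialLinearGroup (Fin 3) F :=
  MonoidHom.mk' (fun A => s3 !![A.1 0 0, A.1 0 1, 0; A.1 1 0, A.1 1 1, 0; 0, 0, ((GeneralLinearGroup.det A)⁻¹ : Fˣ)] (by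
    have := gl2_det A
    simp [det_fin_three, det_fin_two]; field_simp)) fun A B => Subtype.ext (by
      simp only [s3_val, s3_mul, mul_fin_three, gl2_mul]; simp [mul_comm])

theorem iot_val (A : GL (Fin 2) F) : (iot A).1 =
  !![A.1 0 0, A.1 0 1, 0; A.1 1 0, A.1 1 1, 0; 0, 0, ((GeneralLinearGroup.det A)⁻¹ : Fˣ)] := rfl

/-- root elements and the second reflection -/
def e13 (a : F) : SpecialLinearGroup (Fin 3) F := s3 !![1, 0, a; 0, 1, 0; 0, 0, 1] (by simp [det_fin_three])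
/-- root elements and the second reflection -/
def e23 (a : F) : SpecialLinearGroup (Fin 3) F := s3 !![1, 0, 0; 0, 1, a; 0, 0, 1] (by simp [det_fin_three])
/-- root elements and the second reflection -/
def s23 : SpecialLinearGroup (Fin 3) F := s3 !![1, 0, 0; 0, 0, 1; 0, -1, 0] (by simp [det_fin_three])

theorem rel_sl : Rel (iot (F := F)) e13 e23 s23 := by
  constructor <;> intros <;> apply Subtype.ext <;>
    simp only [s3_mul, iot_val, det_dg, det_xu, det_nn, e13, e23, s23, s3_val, mul_fin_three] <;>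
    simp [xu, dg, nn, add_comm, mul_comm, mul_left_comm, sq]
  field_simp

theorem sl3_gen {L : Subgroup (SpecialLinearGroup (Fin 3) F)} (h1 : ∀ A, iot A ∈ L) (h2 : ∀ a, e23 a ∈ L)
    (h3 : s23 ∈ L) : L = ⊤ := by
  have k : ∀ (A B C : SpecialLinearGroup (Fin 3) F), A ∈ L → B ∈ L → (A * C).1 = (B * A).1 → C ∈ L :=
    fun A B C a b e => (mul_mem_cancel_left a).1 (Subtype.ext e ▸ mul_mem b a)
  refine sl_eq_top_of_transvection_mem L fun i j h c => ?_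
  have e : (SpecialLinearGroup.transvection h c).1 = of fun a b => (if a = b then 1 else 0) +
    if i = a ∧ j = b then c else 0 := rfl
  generalize SpecialLinearGroup.transvection h c = T at e ⊢
  rw [eta_fin_three (of _)] at e
  fin_cases i <;> fin_cases j <;> simp at h e
  · exact k 1 _ _ (one_mem _) (h1 (xu c)) (by simp [e, iot_val, det_fin_two, xu])
  · exact k _ _ _ h3 (h1 (xu c)) (by simp [e, s3_mul, iot_val, det_fin_two, xu, s23, s3_val])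
  · exact k 1 _ _ (one_mem _) (h1 (xl c)) (by simp [e, iot_val, det_fin_two, xl])
  · exact k 1 _ _ (one_mem _) (h2 c) (by simp [e, e23, s3_val])
  · exact k _ _ _ h3 (h1 (xl c)) (by simp [e, s3_mul, iot_val, det_fin_two, xl, s23, s3_val])
  · exact k _ _ _ h3 (h2 (-c)) (by simp [e, s3_mul, e23, s23, s3_val])

theorem Rel.exists_hom {Φ : GL (Fin 2) F →* G} {Z V : F → G} {S : G} (R : Rel Φ Z V S) :
    ∃ π : SpecialLinearGroup (Fin 3) F →* G, (∀ A, π (iot A) = Φ A) ∧ (∀ a, π (e23 a) = V a) ∧ π s23 = S := by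
  have Q := rel_sl (F := F)
  have R' : Rel (Φ.prod iot) (fun a => (Z a, e13 a)) (fun a => (V a, e23 a)) (S, s23) :=
    ⟨fun _ => Prod.ext (R.sz _) (Q.sz _), fun _ _ => Prod.ext (R.vadd _ _) (Q.vadd _ _),
      fun _ _ => Prod.ext (R.zv _ _) (Q.zv _ _), fun _ _ => Prod.ext (R.uz _ _) (Q.uz _ _),
      fun _ _ => Prod.ext (R.uv _ _) (Q.uv _ _), fun _ => Prod.ext (R.mv _) (Q.mv _),
      fun _ _ _ => Prod.ext (R.dv _ _ _) (Q.dv _ _ _), fun _ _ => Prod.ext (R.sd _ _) (Q.sd _ _),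
      Prod.ext R.ss Q.ss, Prod.ext R.sv Q.sv, Prod.ext R.br Q.br⟩
  have m1 : ∀ A, (Φ A, iot A) ∈ R'.K := fun A => Or.inl (mem_sup_right ⟨A, rfl⟩)
  have m2 : ∀ a, (V a, e23 a) ∈ R'.K := fun a => Or.inl (mem_sup_left (R'.v_mem a))
  have m3 : (S, s23) ∈ R'.K := Or.inr ⟨1, one_mem _, 1, one_mem _, by simp⟩
  have b : Function.Bijective ((MonoidHom.snd _ _).comp R'.K.subtype) := by
    refine ⟨(injective_iff_map_eq_one _).2 ?_, MonoidHom.range_eq_top.1 (sl3_gen (fun A => ⟨⟨_, m1 A⟩, rfl⟩)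
      (fun A => ⟨⟨_, m2 A⟩, rfl⟩) ⟨⟨_, m3⟩, rfl⟩)⟩
    rintro ⟨k, e | ⟨x, hx, y, hy, rfl⟩⟩ r
    · obtain ⟨a, b, A, rfl⟩ := R'.mem_P.1 e
      replace r : (e13 a * e23 b * iot A).1 = 1 := congrArg Subtype.val r
      simp only [s3_mul, iot_val, e13, e23, s3_val, mul_fin_three, one_fin_three] at r
      simp at r
      obtain ⟨⟨r1, r2, r3⟩, ⟨r4, r5, r6⟩, r7⟩ := r
      obtain rfl : A = 1 := gl2_ext r1 r2 r4 r5
      simp at r3 r6
      simp [r3, r6, R.z0, R.v0, Q.z0, Q.v0]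
    · obtain ⟨a, b, A, e⟩ := R'.mem_P.1 (mul_mem hy hx)
      replace r : s23 * (y * x).2 = 1 := by
        rw [Prod.snd_mul, ← mul_assoc, mul_eq_one_comm, ← mul_assoc]; exact r
      rw [e] at r
      replace r : (s23 * (e13 a * e23 b * iot A)).1 = 1 := congrArg Subtype.val r
      simp only [s3_mul, iot_val, e13, e23, s23, s3_val, mul_fin_three, one_fin_three] at r
      simp at r
  have k : ∀ x (m : x ∈ R'.K), ((MonoidHom.fst _ _).comp (R'.K.subtype.comp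
      (MulEquiv.ofBijective _ b).symm.toMonoidHom)) x.2 = x.1 := fun x m =>
    congrArg (fun y : R'.K => y.1.1) ((MulEquiv.ofBijective _ b).symm_apply_apply ⟨x, m⟩)
  exact ⟨_, fun A => k _ (m1 A), fun a => k _ (m2 a), k _ m3⟩

end Cfsg.Agent.B84
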