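import Cfsg.Agent.B84.Rel

/-! # The generic case: the relations of `SL₃(F)` hold -/

set_option autoImplicit false

namespace Cfsg.Agent.B84

open Cfsg.Agent.GT Cfsg.Agent.Cl Cfsg.Agent.TT Subgroup
open scoped commutatorElement

variable {F G : Type*} [Field F] [Group G] {φ : GL (Fin 2) F →* G} {g x y v n k : G} {W A B : Subgroup G}

theorem nat_mod (ab : A ⊓ B = ⊥) (c : A ≤ C[B]) (hv : v ∈ A) (hn : x * y * x = n) (hβ : n * v * n⁻¹ ∈ B)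
    (xB : x ∈ C[B]) (h1 : ⁅v⁻¹, x⁆ ∈ B) (h2 : ⁅(n * v * n⁻¹)⁻¹, y⁻¹⁆ ∈ A) : x * v * x⁻¹ = v * (n * v * n⁻¹) := by
  have e : x * v * x⁻¹ = y⁻¹ * (n * v * n⁻¹) * y := by
    rw [← commute_iff_conj.1 (show Commute x⁻¹ _ from (inv_mem xB _ hβ).symm), ← hn]; group
  generalize n * v * n⁻¹ = β at *
  have e1 : β⁻¹ * ⁅v⁻¹, x⁆ = v⁻¹ * ⁅β⁻¹, y⁻¹⁆ := by
    rw [inv_mul_eq_iff_eq_mul, ← mul_assoc, c (inv_mem hv) _ hβ, commutatorElement_def, commutatorElement_def]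
    simpa only [mul_assoc, inv_inv, mul_inv_cancel_left, mul_right_inj] using e
  have : β⁻¹ * ⁅v⁻¹, x⁆ = 1 := ab.le (mem_inf.2 ⟨e1 ▸ mul_mem (inv_mem hv) h2, mul_mem (inv_mem hβ) h1⟩)
  rw [inv_mul_eq_one.1 this, commutatorElement_def]; group

theorem nn_dg (a b : Fˣ) : nn * dg a b * nn⁻¹ = dg b a :=
  mul_inv_eq_of_eq_mul (by simp [gl2_eq_iff, gl2_mul, nn, dg])
theorem nu_eq (a : Fˣ) : xu (a : F) * xl (-(a : F)⁻¹) * xu (a : F) = dg a a⁻¹ * nn := by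
  simp [gl2_eq_iff, gl2_mul, nn, dg, xu, xl]
theorem nn_eq : (nn : GL (Fin 2) F) = xu 1 * xl (-1) * xu 1 := by simp [gl2_eq_iff, gl2_mul, nn, xu, xl]
theorem nn_ww : (nn : GL (Fin 2) F) = dg 1 (-1) * ww := by simp [gl2_eq_iff, gl2_mul, nn, dg, ww]
theorem nn_inv : (nn : GL (Fin 2) F)⁻¹ = dg (-1) 1 * ww :=
  inv_eq_of_mul_eq_one_right (by simp [gl2_eq_iff, gl2_mul, nn, dg, ww])
theorem cj_dg (a b : Fˣ) : φ nn * φ (dg a b) * (φ nn)⁻¹ = φ (dg b a) := by rw [← map_inv, ← map_mul, ← map_mul, nn_dg]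
theorem cj_xu (a b : Fˣ) (c : F) : φ (dg a b) * φ (xu c) * (φ (dg a b))⁻¹ = φ (xu (a * c / b)) := by
  rw [← map_inv, ← map_mul, ← map_mul, dg_xu]
theorem cj_xu' (a b : Fˣ) (c : F) : (φ (dg a b))⁻¹ * φ (xu c) * φ (dg a b) = φ (xu (b * c / a)) := by
  have := cj_xu (φ := φ) a⁻¹ b⁻¹ c
  rw [← dg_inv, map_inv, inv_inv] at this
  rw [this]; simp [div_eq_mul_inv, mul_comm, mul_left_comm, mul_assoc]
theorem T_w (hT : Tor φ ≤ N[W]) : Tor φ ≤ N[cj[φ ww] W] := by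
  rw [← conj_normalizer, ← w_Tor]; exact conj_mono _ hT

/-- the root group commutes with both of its neighbours -/
def Bb (φ : GL (Fin 2) F →* G) (g : G) : Prop := cj[g⁻¹] (RL φ) ≤ C[RU φ] ∧ cj[g] (RL φ) ≤ C[RU φ]

variable [Fintype F]

namespace Hy

variable (h : Hy φ g)
include h

theorem xu_inj' {a b : F} (e : φ (xu a) = φ (xu b)) : a = b := sub_eq_zero.1 (h.xu_inj (by
  rw [sub_eq_add_neg, ← xu_add, map_mul, e, ← map_mul, xu_add, add_neg_cancel, xu_zero, map_one]))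

theorem tor_of (e1 : n * φ (dg (-1) (-1)) * n⁻¹ = k * φ (dg (-1) (-1)) * k⁻¹)
    (e2 : n * φ (dg 1 (-1)) * n⁻¹ = k * φ (dg 1 (-1)) * k⁻¹) : n⁻¹ * k ∈ Tor φ := by
  have : ∀ t, n * t * n⁻¹ = k * t * k⁻¹ → Commute (n⁻¹ * k) t := fun t e => commute_iff_conj.2 (by
    rw [mul_inv_rev, mul_assoc n⁻¹, mul_assoc n⁻¹, ← mul_assoc _ k⁻¹, ← e]; group)
  exact mem_Tor.2 (h.cent_U.1 ⟨this _ e1, this _ e2⟩)

theorem cj_m (hT : Tor φ ≤ N[W]) : cj[φ nn] (cj[g] W) = cj[g⁻¹] (cj[φ ww] W) := by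
  rw [nn_ww, map_mul, mul_conj, h.wg hT, conj_eq_self (h.T_cj' (T_w hT) (dg_mem _ _))]

theorem cj_s (hT : Tor φ ≤ N[W]) : cj[(rt g φ nn)⁻¹] W = cj[g⁻¹] (cj[φ ww] W) := by
  rw [← map_inv, nn_inv, map_mul, mul_conj, show rt g φ ww = g * φ ww * g⁻¹ from rfl, mul_conj, mul_conj,
    h.wg' hT, h.gg (T_w hT), conj_eq_self (h.T_cj' (T_w hT) (h.Tor_rt.le (dg_mem _ _)))]

theorem bb_refl (b : Bb φ g) : Bb (rf φ) g⁻¹ := by
  have e1 := conj_mono (φ ww) b.1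
  have e2 := conj_mono (φ ww) b.2
  rw [conj_centralizer, w_RU, h.wg' Tor_RL, w_RL] at e1
  rw [conj_centralizer, w_RU, h.wg Tor_RL, w_RL] at e2
  exact ⟨by rwa [inv_inv, RL_rf], by rwa [RL_rf]⟩

theorem t2_P (b : Bb φ g) : ∀ x ∈ RU φ ⊔ cj[g⁻¹] (RL φ), φ (dg 1 (-1)) * x * (φ (dg 1 (-1)))⁻¹ = x⁻¹ :=
  inv_sup (fun _ => t2_RU) ((show g⁻¹ * φ (dg (-1) 1) * g⁻¹⁻¹ = φ (dg 1 (-1)) by
    rw [← h.g2]; group) ▸ inv_cj g⁻¹ fun _ => t3_RL) (le_cent_symm b.1)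

variable [Finite G]

theorem nrm (b : Bb φ g) : cj[g] (RL φ) ≤ N[RU φ ⊔ cj[g⁻¹] (RL φ)] := le_norm_iff.2 fun a ha x hx => by
  obtain ⟨Y, o, le, n, m, -⟩ := h.exists_Y
  have oL : ∀ k, Odd (Nat.card (cj[k] (RL φ))) := fun k => by rw [card_conj]; exact h.refl.odd_RU
  have y1 : RU φ ≤ Y := fun x e => m x (RU_comm e) (odd_of_mem h.odd_RU e)
  have y2 : cj[g⁻¹] (RL φ) ≤ Y := fun x e => m x (b.1 e) (odd_of_mem (oL _) e)
  have T := Tor_RU.trans n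
  have c : Commute (φ (dg 1 (-1))) a := h.g1 ▸ (h.rot.cent.2 (RU_le (φ := rf (rt g φ)) (RL_rt.ge ha) |>.elim
    fun A e => ⟨_, (rf_apply A).symm.trans e⟩)).symm
  have e3 : φ (dg 1 (-1)) * φ (dg (-1) (-1)) = φ (dg (-1) 1) := T_comm.eq.trans t12
  have k1 : ∀ a ∈ Y, Commute a (φ (dg (-1) (-1))) → φ (dg 1 (-1)) * a * (φ (dg 1 (-1)))⁻¹ = a⁻¹ → a ∈ RU φ :=
    fun a m c e => by
      rcases h.inv_cases (a := 1) o T m c e with rfl | e | e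
      exacts [one_mem _, e.1, (h.not_both o T y1 e.2).elim]
  have k2 : ∀ a ∈ Y, Commute a (φ (dg 1 (-1)) * φ (dg (-1) (-1))) →
      φ (dg 1 (-1)) * a * (φ (dg 1 (-1)))⁻¹ = a⁻¹ → a ∈ cj[g⁻¹] (RL φ) := fun a m c e => by
    rcases h.inv3 o T m (e3 ▸ c) (by
      calc _ = (φ (dg 1 (-1)))⁻¹ * (φ (dg 1 (-1)) * φ (dg (-1) (-1)) * a * (φ (dg 1 (-1)) * φ (dg (-1) (-1)))⁻¹) *
          (φ (dg 1 (-1)))⁻¹⁻¹ := by group
        _ = _ := by rw [commute_iff_conj.1 c.symm, inv_of_sq (t_sq (by simp) (by simp)), e]) with rfl | e | e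
    exacts [one_mem _, (h.not_both3 o T e.2 y2).elim, e.1]
  have ma := m a (b.2 ha) (odd_of_mem (oL _) ha)
  obtain ⟨u, hu, i, hi, u1, u2, i1, i2, e⟩ := four_inv o (t_sq (by simp) (by simp)) (t_sq (by simp) (by simp))
    T_comm (T (dg_mem 1 (-1))) (T (dg_mem (-1) (-1))) (mul_mem (mul_mem ma (sup_le y1 y2 hx)) (inv_mem ma))
    (by rw [← conj_mul, ← conj_mul, h.t2_P b x hx, commute_iff_conj.1 c, commute_iff_conj.1 c.inv_right, conj_inv])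
    fun u hu i hi u1 u2 i1 i2 => b.1 (k2 i hi i1 i2) u (k1 u hu u1 u2)
  exact e ▸ mul_mem (mem_sup_left (k1 u hu u1 u2)) (mem_sup_right (k2 i hi i1 i2))

theorem c1 (b : Bb φ g) : ⁅cj[g⁻¹] (RL φ), cj[g] (RL φ)⁆ ≤ RU φ := by
  have n := h.dual.nrm ⟨by rw [RU_du, RL_du, inv_inv]; exact b.2, by rw [RU_du, RL_du]; exact b.1⟩
  rw [RU_du, RL_du, inv_inv] at n
  have := le_inf ((commutator_mono le_rfl le_sup_right).trans (commutator_le_of_le_norm_right n))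
    ((commutator_mono le_sup_right le_rfl).trans (commutator_le_of_le_norm_left (h.nrm b)))
  rwa [dedekind (Or.inr (b.2.trans (cent_le_norm _))) le_sup_left, show cj[g] (RL φ) ⊓ _ = ⊥ from
    RL_rt (g := g) (φ := φ) ▸ h.rot.refl.inf_bot (by
      rw [rf_apply, ww_dg, show rt g φ _ = _ from h.g1]; exact h.t2_P b), sup_bot_eq] at this

theorem rel (b : Bb φ g) : ∃ Φ : GL (Fin 2) F →* G, (∀ A, Matrix.GeneralLinearGroup.det A = 1 → Φ A = φ A) ∧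
    (∀ A, Φ A ∈ φ.range) ∧
    Rel Φ (fun a => (rt g φ nn)⁻¹ * φ (xu a) * rt g φ nn) (fun a => rt g φ (xu a)) (rt g φ nn) := by
  have hz : ∀ x ∈ RU φ, (rt g φ nn)⁻¹ * x * rt g φ nn ∈ cj[g⁻¹] (RL φ) := fun x e => by
    rw [← w_RU, ← h.cj_s Tor_RU]; simpa using (conj_mem_conj (g := (rt g φ nn)⁻¹)).2 e
  have hv : ∀ a, rt g φ (xu a) ∈ cj[g] (RU φ) := fun a => RU_rt.le (xu_mem a)
  have cb : cj[g⁻¹] (RL φ) ≤ C[cj[g] (RU φ)] := by rw [← h.gg Tor_RL, ← conj_centralizer]; exact conj_mono g b.2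
  have d1 : ⁅cj[g] (RU φ), RU φ⁆ ≤ cj[g⁻¹] (RL φ) := by
    have := conj_mono g⁻¹ (h.refl.c1 (h.bb_refl b))
    rwa [RL_rf, inv_inv, conj_commutator, inv_conj_conj, ← h.gg Tor_RU, inv_conj_conj, commutator_comm] at this
  have d2 : ⁅cj[g⁻¹] (RL φ), RL φ⁆ ≤ cj[g] (RU φ) := by
    have := conj_mono g (h.c1 b)
    rwa [conj_commutator, conj_inv_conj, h.gg Tor_RL, commutator_comm] at this
  have r1 : rt g φ (dg (-1) (-1)) = φ (dg 1 (-1)) := h.g1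
  have r2 : rt g φ (dg 1 (-1)) = φ (dg (-1) 1) := h.g2
  have r3 : rt g φ (dg (-1) 1) = φ (dg (-1) (-1)) := h.g3
  have sa := cj_dg (φ := rt g φ) (-1) (-1)
  have sb := cj_dg (φ := rt g φ) 1 (-1)
  have sc := cj_dg (φ := rt g φ) (-1) 1
  rw [r1] at sa
  rw [r2, r3] at sb sc
  obtain ⟨κ, κ', hκ⟩ := mem_Tor.1 (h.tor_of (n := (rt g φ nn)⁻¹) (k := φ nn * g)
    (by rw [mul_inv_rev, mul_assoc _ g, mul_assoc _ _ (g⁻¹ * _), ← mul_assoc _ g⁻¹, h.g1, ← mul_assoc, cj_dg, ← sb]; group)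
    (by rw [mul_inv_rev, mul_assoc _ g, mul_assoc _ _ (g⁻¹ * _), ← mul_assoc _ g⁻¹, h.g2, ← mul_assoc, cj_dg]
        conv_lhs => rw [← sa]
        group))
  have mv : ∀ c, φ nn * rt g φ (xu c) * (φ nn)⁻¹ = (rt g φ nn)⁻¹ * φ (xu (κ * c / κ')) * rt g φ nn := fun c => by
    rw [← cj_xu, ← hκ, show rt g φ (xu c) = g * φ (xu c) * g⁻¹ from rfl]; group
  have ib := h.inf_bot h.t1_13
  have ib' : cj[g] (RU φ) ⊓ cj[g⁻¹] (RL φ) = ⊥ := by rw [← h.gg Tor_RL, ← conj_inf, h.inf_bot h.t1_32, conj_bot]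
  have u1 : ∀ (a : Fˣ) c, φ (xu a) * rt g φ (xu c) * (φ (xu a))⁻¹ = rt g φ (xu c) *
      (φ (dg a a⁻¹ * nn) * rt g φ (xu c) * (φ (dg a a⁻¹ * nn))⁻¹) := fun a c => by
    have m : φ (dg a a⁻¹ * nn) * rt g φ (xu c) * (φ (dg a a⁻¹ * nn))⁻¹ ∈ cj[g⁻¹] (RL φ) := by
      have := conj_mem_of_le_norm (h.T_cj' Tor_RL) (dg_mem a a⁻¹) (mv c ▸ hz _ (xu_mem _))
      simpa only [map_mul, mul_assoc, mul_inv_rev] using this
    exact nat_mod ib' (le_cent_symm cb) (hv c) (by rw [← nu_eq, map_mul, map_mul]) m (le_cent_symm b.1 (xu_mem _))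
      (d1 (commutator_mem_commutator (inv_mem (hv c)) (xu_mem _)))
      (d2 (commutator_mem_commutator (inv_mem m) (inv_mem (xl_mem _))))
  have u2 : ∀ (a : Fˣ) c, (rt g φ (xu a))⁻¹ * φ (xu c) * (rt g φ (xu a))⁻¹⁻¹ = φ (xu c) *
      ((rt g φ (dg a a⁻¹ * nn))⁻¹ * φ (xu c) * (rt g φ (dg a a⁻¹ * nn))⁻¹⁻¹) := fun a c => by
    have m : (rt g φ (dg a a⁻¹ * nn))⁻¹ * φ (xu c) * (rt g φ (dg a a⁻¹ * nn))⁻¹⁻¹ ∈ cj[g⁻¹] (RL φ) := by
      have := hz _ (conj_mem_of_le_norm' Tor_RU (h.Tor_rt.le (dg_mem a a⁻¹)) (xu_mem c))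
      simpa only [map_mul, mul_assoc, mul_inv_rev, inv_inv] using this
    exact nat_mod ib (le_cent_symm b.1) (xu_mem c) (y := (rt g φ (xl (-(a : F)⁻¹)))⁻¹)
      (by rw [← nu_eq, map_mul, map_mul]; group) m (inv_mem (le_cent_symm cb (hv _)))
      (d1 (commutator_comm (RU φ) _ ▸ commutator_mem_commutator (inv_mem (xu_mem _)) (inv_mem (hv _))))
      (h.c1 b (commutator_mem_commutator (inv_mem m) (inv_mem (inv_mem (RL_rt.le (xl_mem _))))))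
  have ff : ∀ a c : Fˣ, φ (dg a a⁻¹) * (φ nn * rt g φ (xu c) * (φ nn)⁻¹) * (φ (dg a a⁻¹))⁻¹ =
      (rt g φ nn)⁻¹ * ((rt g φ (dg c c⁻¹))⁻¹ * φ (xu a) * rt g φ (dg c c⁻¹)) * rt g φ nn := fun a c => by
    have e1 := u1 a c
    have e2 := u2 c a
    have := b.1 (hz _ (conj_mem_of_le_norm' Tor_RU (h.Tor_rt.le (dg_mem c c⁻¹)) (xu_mem (a : F)))) _ (xu_mem (a : F))
    simp only [map_mul, mul_assoc, mul_inv_rev, inv_inv] at e1 e2 this ⊢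
    rw [this, inv_mul_eq_iff_eq_mul] at e2
    rw [← mul_right_inj (rt g φ (xu c)), ← e1, ← mul_assoc, e2]; group
  have κ1 : (κ : F) * 1 / κ' = 1 := by
    have := ff 1 1
    rw [mv, inv_one, dg_one, map_one, map_one] at this
    exact h.xu_inj' (by simpa using this)
  replace mv : ∀ c, φ nn * rt g φ (xu c) * (φ nn)⁻¹ = (rt g φ nn)⁻¹ * φ (xu c) * rt g φ nn := fun c => by
    rw [mv, show (κ : F) * c / κ' = κ * 1 / κ' * c by ring, κ1, one_mul]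
  have hd : ∀ d : Fˣ, ∃ c, rt g φ (dg d d⁻¹) = φ (dg 1 d) * φ (dg c c) := fun d => by
    obtain ⟨a, c, e⟩ := mem_Tor.1 (h.Tor_rt.le (dg_mem d d⁻¹))
    have := ff 1 d
    rw [mv, inv_one, dg_one, map_one, e, cj_xu'] at this
    have := h.xu_inj' (by simpa using this : φ (xu d) = φ (xu (c / a)))
    exact ⟨a, by rw [e, ← map_mul, dg_mul, one_mul, show d * a = c from Units.ext (by simp [this])]⟩
  choose ζ hζ using hd
  have zc : ∀ d A, φ (dg (ζ d) (ζ d)) * φ A = φ A * φ (dg (ζ d) (ζ d)) := fun d A => by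
    rw [← map_mul, dg_comm, map_mul]
  have zm : ∀ d e, φ (dg (ζ (d * e)) (ζ (d * e))) = φ (dg (ζ d) (ζ d)) * φ (dg (ζ e) (ζ e)) := fun d e => by
    have := hζ (d * e)
    rw [mul_inv, ← dg_mul, map_mul, hζ, hζ, ← one_mul (1 : Fˣ), ← dg_mul, map_mul, one_mul, mul_assoc, mul_assoc,
      mul_right_inj, ← mul_assoc, zc, mul_assoc, mul_right_inj] at this
    exact this.symm
  obtain ⟨Φ, hΦ⟩ : ∃ Φ : GL (Fin 2) F →* G, ∀ A, Φ A = φ A * φ (dg (ζ (Matrix.GeneralLinearGroup.det A))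
      (ζ (Matrix.GeneralLinearGroup.det A))) := ⟨MonoidHom.mk' (fun A => φ A * φ (dg (ζ (Matrix.GeneralLinearGroup.det A))
      (ζ (Matrix.GeneralLinearGroup.det A)))) fun A B => by
    rw [map_mul, map_mul, zm, mul_assoc, mul_assoc, ← mul_assoc (φ B), ← zc, mul_assoc], fun _ => rfl⟩
  have Φ1 : ∀ A, Matrix.GeneralLinearGroup.det A = 1 → Φ A = φ A := fun A e => by
    rw [hΦ, e, show φ (dg (ζ 1) (ζ 1)) = 1 by simpa using zm 1 1, mul_one]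
  have Φ2 : ∀ d, Φ (dg 1 d) = rt g φ (dg d d⁻¹) := fun d => by rw [hΦ, det_dg, one_mul, hζ]
  have hu : ∀ (d : Fˣ) a, (rt g φ (dg d d⁻¹))⁻¹ * φ (xu a) * rt g φ (dg d d⁻¹) = φ (xu (a * d)) := fun d a => by
    rw [hζ, ← map_mul, dg_mul, cj_xu']
    exact congrArg (fun c => φ (xu c)) (by simp; field_simp)
  have dv : ∀ (a b : Fˣ) c, Φ (dg a b) * rt g φ (xu c) * (Φ (dg a b))⁻¹ = rt g φ (xu (a * b ^ 2 * c)) := by
    have k : ∀ (a : Fˣ) c, φ (dg a⁻¹ a) * rt g φ (xu c) * (φ (dg a⁻¹ a))⁻¹ = rt g φ (xu (a * c)) := fun a c => by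
      by_cases c0 : c = 0
      · simp [c0, xu_zero]
      have := ff a (.mk0 c c0)
      rw [hu, ← mv, ← cj_dg a⁻¹ a] at this
      exact (conj_inj_iff (φ nn)).1 (Eq.trans (by rw [Units.val_mk0]; group) this)
    intro a b c
    rw [show dg a b = dg a⁻¹⁻¹ a⁻¹ * dg 1 (a * b) by simp [dg_mul], map_mul, Φ1 _ (by simp [det_dg]), Φ2,
      show ∀ x y z : G, x * y * z * (x * y)⁻¹ = x * (y * z * y⁻¹) * x⁻¹ by intros; group, cj_xu, k]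
    exact congrArg (fun c => rt g φ (xu c)) (by simp; field_simp)
  refine ⟨Φ, Φ1, fun A => ⟨_, by rw [hΦ, map_mul]⟩, fun a => by rw [Φ1 _ (det_xu _)]; group,
    fun a b => by rw [← map_mul, xu_add], fun a c => (cb (hz _ (xu_mem a)) _ (hv c)).symm,
    fun a c => by rw [Φ1 _ (det_xu _)]; exact b.1 (hz _ (xu_mem c)) _ (xu_mem a), fun a c => ?_,
    fun c => by rw [Φ1 _ det_nn, ← mv, inv_mul_cancel_right], fun a b c => by rw [← dv, inv_mul_cancel_right],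
    fun a c => ?_, by rw [← map_mul, nn_sq, Φ2, inv_neg_one], ?_, ?_⟩
  · rw [Φ1 _ (det_xu _), ← mul_inv_eq_iff_eq_mul]
    by_cases a0 : a = 0
    · rw [a0, zero_mul, xu_zero, map_one]; group
    by_cases c0 : c = 0
    · rw [c0, mul_zero, xu_zero, map_one, map_one]; group
    have e := ff (.mk0 a a0) (.mk0 c c0)
    rw [hu] at e
    have := u1 (.mk0 a a0) c
    simp only [map_mul, mul_assoc, mul_inv_rev, Units.val_mk0] at e this ⊢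
    rw [this, e]
  · obtain ⟨x, y, e⟩ := mem_Tor.1 (h.Tor_rt.ge (show Φ (dg a c) ∈ Tor φ by
      rw [hΦ]; exact mul_mem (dg_mem _ _) (dg_mem _ _)))
    have := dv a c 1
    rw [e, cj_xu] at this
    have := h.rot.xu_inj' this
    rw [← mul_inv_eq_iff_eq_mul, show dg a (a * c)⁻¹ = dg a c * dg 1 (a * c ^ 2)⁻¹ by simp [dg_mul, sq, mul_assoc],
      map_mul, Φ2, e, cj_dg, ← map_mul, dg_mul, show x = a * c ^ 2 * y from Units.ext (by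
        simp; field_simp at this; linear_combination this), inv_inv, mul_comm y,
      mul_inv_cancel_comm]
  · simp only [← map_mul]
    exact congrArg _ (by simp [gl2_eq_iff, gl2_mul, nn, xu])
  rw [Φ1 _ det_nn]
  have t := h.tor_of (n := φ nn * rt g φ nn * (φ nn)⁻¹) (k := (rt g φ nn)⁻¹ * φ nn * rt g φ nn)
    (by calc _ = φ nn * (rt g φ nn * ((φ nn)⁻¹ * (φ nn * φ (dg (-1) (-1)) * (φ nn)⁻¹) * φ nn) * (rt g φ nn)⁻¹) *
            (φ nn)⁻¹ := by rw [cj_dg]; group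
          _ = (rt g φ nn)⁻¹ * (φ nn * (rt g φ nn * φ (dg (-1) (-1)) * (rt g φ nn)⁻¹) * (φ nn)⁻¹) * rt g φ nn := by
            rw [show ∀ a b : G, a⁻¹ * (a * b * a⁻¹) * a = b by intros; group, sc, cj_dg]
            conv_rhs => rw [← sa]
            group
          _ = _ := by group)
    (by calc _ = φ nn * (rt g φ nn * ((φ nn)⁻¹ * (φ nn * φ (dg (-1) 1) * (φ nn)⁻¹) * φ nn) * (rt g φ nn)⁻¹) *
            (φ nn)⁻¹ := by rw [cj_dg]; group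
          _ = (rt g φ nn)⁻¹ * (φ nn * (rt g φ nn * φ (dg 1 (-1)) * (rt g φ nn)⁻¹) * (φ nn)⁻¹) * rt g φ nn := by
            rw [show ∀ a b : G, a⁻¹ * (a * b * a⁻¹) * a = b by intros; group, sb, sa, cj_dg, cj_dg, ← sc]
            group
          _ = _ := by group)
  have y1 : φ nn * rt g φ (xl (-1)) * (φ nn)⁻¹ ∈ cj[g⁻¹] (RU φ) := by
    rw [← w_RL, ← h.cj_m Tor_RL]; exact conj_mem_conj.2 (RL_rt.le (xl_mem _))
  have y2 : (rt g φ nn)⁻¹ * φ (xl (-1)) * (rt g φ nn)⁻¹⁻¹ ∈ cj[g⁻¹] (RU φ) := by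
    rw [← w_RL, ← h.cj_s Tor_RL]; exact conj_mem_conj.2 (xl_mem _)
  have := (T_inf ((h.isP_RU.map _).map (MulAut.conj ((rt g φ nn)⁻¹ * φ (xu 1) * rt g φ nn)⁻¹).toMonoidHom)).le
    (mem_inf.2 ⟨mem_conj.2 (by
      convert mul_mem (inv_mem y1) y2 using 1
      have e1 : φ nn * rt g φ nn * (φ nn)⁻¹ = φ nn * rt g φ (xu 1) * (φ nn)⁻¹ * (φ nn * rt g φ (xl (-1)) * (φ nn)⁻¹) *
        (φ nn * rt g φ (xu 1) * (φ nn)⁻¹) := by rw [conj_mul, conj_mul, ← map_mul, ← map_mul, ← nn_eq]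
      have e2 : φ nn = φ (xu 1) * φ (xl (-1)) * φ (xu 1) := by rw [← map_mul, ← map_mul, ← nn_eq]
      rw [e1, mv, show φ (xl (-1)) = (φ (xu 1))⁻¹ * φ nn * (φ (xu 1))⁻¹ by rw [e2]; group]
      group), t⟩)
  rw [mem_bot, inv_mul_eq_one, mul_inv_eq_iff_eq_mul] at this
  conv_lhs => rw [mul_assoc, this]
  group

end Hy

end Cfsg.Agent.B84
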