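import Cfsg.Agent.B84.ThB

/-! # The generic case: identification with `PSL₃(F)` -/

set_option autoImplicit false

namespace Cfsg.Agent.B84

open Cfsg.Agent.GT Cfsg.Agent.Cl Cfsg.Agent.TT Subgroup Matrix

variable {F G : Type*} [Field F] [Group G] {φ : GL (Fin 2) F →* G} {g : G}

theorem ker_le_center (π : SpecialLinearGroup (Fin 3) F →* G) {A B : SpecialLinearGroup (Fin 3) F}
    (n : ¬ Commute (π A) (π B)) : π.ker ≤ center _ := by
  haveI := psl_isSimpleGroup (F := F) (ι := Fin 3) (by simp)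
  rcases (π.normal_ker.map _ (QuotientGroup.mk'_surjective (center _))).eq_bot_or_eq_top with e | e
  · rwa [Subgroup.map_eq_bot_iff, QuotientGroup.ker_mk'] at e
  obtain ⟨k, hk, r⟩ := e.ge (mem_top (QuotientGroup.mk' _ A))
  have := Commute.map (show Commute (k⁻¹ * A) B from (Subgroup.mem_center_iff.1 (QuotientGroup.eq.1 r) B).symm) π
  rw [map_mul, map_inv, show π k = 1 from hk, inv_one, one_mul] at this
  exact (n this).elim

theorem mem_iot (two : (2 : F) ≠ 0) {A : SpecialLinearGroup (Fin 3) F}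
    (e : A * iot (dg (-1) (-1)) * A⁻¹ * (iot (dg (-1) (-1)))⁻¹ ∈ center _) : A ∈ iot.range := by
  obtain ⟨c, -, r⟩ := Matrix.SpecialLinearGroup.mem_center_iff.1 e
  have : (A * iot (dg (-1) (-1))).1 = scalar (Fin 3) c * (iot (dg (-1) (-1)) * A).1 := by
    have : ∀ a b : SpecialLinearGroup (Fin 3) F, a * b = a * b * a⁻¹ * b⁻¹ * (b * a) := fun a b => by group
    rw [r, ← s3_mul]; exact congrArg Subtype.val (this _ _)
  have d := A.2
  rw [s3_mul, s3_mul, iot_val, eta_fin_three A.1, mul_fin_three, mul_fin_three, scalar_apply, ← smul_eq_diagonal_mul]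
    at this
  simp [dg, det_fin_two] at this
  obtain ⟨⟨a0, a1, a2⟩, ⟨b0, b1, b2⟩, c0, c1, c2⟩ := this
  rw [det_fin_three] at d
  by_cases c1 : c = 1
  · have z : ∀ x : F, x = -(c * x) → x = 0 := fun x e => (mul_eq_zero.1 (show 2 * x = 0 by
      rw [c1] at e; linear_combination e)).resolve_left two
    have z1 := z _ a2
    have z2 := z _ b2
    have z3 := z _ (neg_eq_iff_eq_neg.1 c0)
    have z4 := z _ (neg_eq_iff_eq_neg.1 ‹_›)
    rw [z1, z2, z3, z4] at d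
    have D : A.1 0 0 * A.1 1 1 - A.1 0 1 * A.1 1 0 ≠ 0 := left_ne_zero_of_mul_eq_one (b := A.1 2 2) (by
      linear_combination d)
    refine ⟨gl2mk _ _ _ _ D, Subtype.ext ?_⟩
    rw [iot_val]
    conv_rhs => rw [eta_fin_three A.1, z1, z2, z3, z4]
    simp [det_fin_two]
    exact inv_eq_of_mul_eq_one_right (by linear_combination d)
  · have z : ∀ x : F, x = c * x → x = 0 := fun x e => (mul_eq_zero.1 (show (c - 1) * x = 0 by
      linear_combination -e)).resolve_left (sub_ne_zero.2 c1)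
    rw [z _ a0, z _ a1, z _ b0, z _ b1] at d
    simp at d

variable [Fintype F]

theorem index_iot : Fintype.card F ^ 2 * (Fintype.card F ^ 2 + Fintype.card F + 1) ≤ (iot (F := F)).range.index := by
  have a := card_sl_mul (F := F) 3 (by norm_num)
  have b := Nat.le_of_dvd Nat.card_pos (card_range_dvd (iot (F := F)))
  rw [← (iot (F := F)).range.card_mul_index, Fin.prod_univ_three] at a
  rw [card_gl_two] at b
  obtain ⟨r, qr⟩ : ∃ r, Fintype.card F = r + 2 := ⟨Fintype.card F - 2, by have := Fintype.one_lt_card (α := F); omega⟩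
  simp only [qr, Fin.val_zero, Fin.val_one, Fin.val_two, show r + 2 - 1 = r + 1 from rfl] at a b ⊢
  rw [show (r + 2) ^ 3 - (r + 2) ^ 0 = (r + 1) * ((r + 2) ^ 2 + (r + 2) + 1) from Nat.sub_eq_of_eq_add (by ring),
    show (r + 2) ^ 3 - (r + 2) ^ 1 = (r + 1) * ((r + 2) * (r + 3)) from Nat.sub_eq_of_eq_add (by ring),
    show (r + 2) ^ 3 - (r + 2) ^ 2 = (r + 1) * (r + 2) ^ 2 from Nat.sub_eq_of_eq_add (by ring)] at a
  refine Nat.le_of_mul_le_mul_left ?_ (show 0 < (r + 1) * ((r + 2) * (r + 1) ^ 2 * (r + 2 + 1)) by positivity)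
  exact le_trans (le_of_eq (by ring)) (a.ge.trans ((Nat.mul_le_mul_left _ (Nat.mul_le_mul_right _ b)).trans
    (le_of_eq (by ring))))

theorem Hy.thmB [Finite G] [IsSimpleGroup G] (h : Hy φ g) (b : Bb φ g) (lt : (C1[φ (dg (-1) (-1))]).index <
    3 * Fintype.card F ^ 2 * (Fintype.card F ^ 2 - Fintype.card F + 1)) :
    Nonempty (G ≃* ProjectiveSpecialLinearGroup (Fin 3) F) := by
  obtain ⟨Φ, Φ1, Φ2, R⟩ := h.rel b
  obtain ⟨π, p1, p2, p3⟩ := R.exists_hom
  have nc : ¬ Commute (φ (xu 1)) (φ (xl 1)) := fun e => by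
    simpa [gl2_mul, xu, xl] using (gl2_eq_iff.1 (h.commute_iff.1 e).eq).1
  have kc := ker_le_center π (A := iot (xu 1)) (B := iot (xl 1)) (by rwa [p1, p1, Φ1 _ (det_xu _), Φ1 _ (det_xl _)])
  have TL := le_norm_sup (le_norm_sup Tor_RU Tor_RL) (le_norm_sup (h.T_cj Tor_RU) (h.T_cj Tor_RL))
  have Lπ : RU φ ⊔ RL φ ⊔ (cj[g] (RU φ) ⊔ cj[g] (RL φ)) ≤ π.range := by
    rw [← RU_rt, ← RL_rt]
    refine sup_le (sup_le ?_ ?_) (sup_le ?_ ?_) <;> intro x e
    · obtain ⟨c, rfl⟩ := mem_RU.1 e; exact ⟨_, (p1 _).trans (Φ1 _ (det_xu _))⟩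
    · obtain ⟨c, rfl⟩ := mem_RL.1 e; exact ⟨_, (p1 _).trans (Φ1 _ (det_xl _))⟩
    · obtain ⟨c, rfl⟩ := mem_RU.1 e; exact ⟨_, p2 _⟩
    · obtain ⟨c, rfl⟩ := mem_RL.1 e
      refine ⟨s23 * e23 (-c) * s23⁻¹, ?_⟩
      rw [map_mul, map_mul, map_inv, p2, p3, ← map_inv, ← map_mul, ← map_mul]
      exact congrArg _ (mul_inv_eq_of_eq_mul (by simp [gl2_eq_iff, gl2_mul, nn, xu, xl]))
  have l1 : RU φ ≤ RU φ ⊔ RL φ ⊔ (cj[g] (RU φ) ⊔ cj[g] (RL φ)) := le_sup_of_le_left le_sup_left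
  have l2 : RL φ ≤ RU φ ⊔ RL φ ⊔ (cj[g] (RU φ) ⊔ cj[g] (RL φ)) := le_sup_of_le_left le_sup_right
  have l3 : RU (rt g φ) ≤ RU φ ⊔ RL φ ⊔ (cj[g] (RU φ) ⊔ cj[g] (RL φ)) := RU_rt.le.trans (le_sup_of_le_right le_sup_left)
  have l4 : RL (rt g φ) ≤ RU φ ⊔ RL φ ⊔ (cj[g] (RU φ) ⊔ cj[g] (RL φ)) := RL_rt.le.trans (le_sup_of_le_right le_sup_right)
  generalize RU φ ⊔ RL φ ⊔ (cj[g] (RU φ) ⊔ cj[g] (RL φ)) = L at *
  have k : ∀ {ψ : GL (Fin 2) F →* G}, RU ψ ≤ L → RL ψ ≤ L → ψ nn ∈ L := fun e1 e2 => by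
    rw [nn_eq, map_mul, map_mul]; exact mul_mem (mul_mem (e1 (xu_mem _)) (e2 (xl_mem _))) (e1 (xu_mem _))
  have HL : φ.range ≤ L ⊔ Tor φ := by
    have : ∀ a b c, φ (dg a b * xu c) ∈ L ⊔ Tor φ := fun a b c => by
      rw [map_mul]; exact mul_mem (mem_sup_right (dg_mem _ _)) (mem_sup_left (l1 (xu_mem _)))
    rintro _ ⟨A, rfl⟩
    rcases bruhat A with ⟨a, b, c, rfl⟩ | ⟨d, a, b, c, rfl⟩
    · exact this a b c
    · rw [map_mul, map_mul]; exact mul_mem (mem_sup_left (mul_mem (l1 (xu_mem _)) (k l1 l2))) (this a b c)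
  have πL : π.range ≤ L ⊔ Tor φ := by
    rw [MonoidHom.range_eq_map, map_le_iff_le_comap, top_le_iff]
    exact sl3_gen (fun A => by rw [mem_comap, p1]; exact HL (Φ2 A))
      (fun a => by rw [mem_comap, p2]; exact mem_sup_left (l3 (xu_mem _)))
      (by rw [mem_comap, p3]; exact mem_sup_left (k l3 l4))
  have i1 : Fintype.card F ^ 2 * (Fintype.card F ^ 2 + Fintype.card F + 1) ≤ φ.range.relIndex (L ⊔ Tor φ) := by
    refine (index_iot.trans (index_antitone (H := φ.range.comap π) fun A e => mem_iot h.two (kc ?_))).trans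
      ((index_comap _ _).le.trans (relIndex_le_of_le_right πL (relIndex_pos _ _).ne'))
    rw [MonoidHom.mem_ker, map_mul, map_mul, map_mul, map_inv, map_inv, p1, Φ1 _ (by simp [det_dg]),
      commute_iff_conj.1 (h.cent.2 e), mul_inv_cancel]
  have i2 := relIndex_mul_index HL
  rw [h.range] at i1 i2
  have top : L ⊔ Tor φ = ⊤ := index_eq_one.1 (by
    have o := Nat.odd_iff.1 (h.odd_index.of_dvd_nat (Dvd.intro_left _ i2))
    by_contra n
    refine lt.not_ge (i2 ▸ le_trans ?_ (Nat.mul_le_mul i1 (show 3 ≤ _ by omega)))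
    rw [mul_comm _ 3, mul_assoc]
    exact Nat.mul_le_mul_left _ (Nat.mul_le_mul_left _ (by omega)))
  have Lt : L = ⊤ := ((normal_iff_top_le_norm.2 (top ▸ sup_le le_normalizer TL)).eq_bot_or_eq_top).resolve_left
    fun e => one_ne_zero (h.xu_inj (e.le (l1 (xu_mem 1))))
  have sj : Function.Surjective π := MonoidHom.range_eq_top.1 (top_le_iff.1 (Lt ▸ Lπ))
  have ck : π.ker = center _ := le_antisymm kc fun A e => ((inferInstance : (center G).Normal).eq_bot_or_eq_top.resolve_right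
    fun e => nc (Subgroup.mem_center_iff.1 (e.ge (mem_top _)) _)).le (Subgroup.mem_center_iff.2 fun x => by
      obtain ⟨B, rfl⟩ := sj x
      rw [← map_mul, ← map_mul, Subgroup.mem_center_iff.1 e])
  exact ⟨((QuotientGroup.quotientMulEquivOfEq ck.symm).trans (QuotientGroup.quotientKerEquivOfSurjective π sj)).symm⟩

end Cfsg.Agent.B84
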